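import Mathlib
import Cfsg.Agent.Lib.Helper79.CS3.EndDefs

/-!
# CS3 (S4284), part [END]: package [II5] - CASE II is contradictory

`g ∈ P` not centralizing `Q`, `σ` = conjugation by `g` on the abelian group `Q`, `σ ^ m = 1`
(`g ^ m` central), `ν(u) = ∏_{k < m} σ^k u`.  `y ∈ C_Q(g)` non-central, `u₀ = q⁻¹ σ(q) ≠ 1` with
`ν(u₀) = 1`, `v = y u₀` is not central; a non-central `h ∈ C_P(v)` fixes `y` and `u₀` separately
(`y⁻¹ y^h = u₀ (u₀^h)⁻¹` is `σ`-fixed of norm one, hence trivial), so `h ∈ C_P(y) = C_P(g)` and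
`C_P(u₀) = C_P(h) ∋ g`: `u₀` is `σ`-fixed of norm one, `u₀ = 1`.
-/

set_option autoImplicit false

namespace Cfsg.Agent.Lib.Helper71.CS3

open Subgroup Cfsg.Agent.Lib.Helper81.CS3 Cfsg.Agent.Lib.Helper79.CS3

universe u

section Norm

variable {V : Type*} [CommGroup V]

/-- The norm of `u` with respect to the automorphism `σ` (product of `m` iterates). -/
def nrmII5 (σ : MulAut V) (m : ℕ) (u : V) : V := ∏ k ∈ Finset.range m, (σ ^ k) u

theorem nrmII5_mul (σ : MulAut V) (m : ℕ) (u v : V) :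
    nrmII5 σ m (u * v) = nrmII5 σ m u * nrmII5 σ m v := by
  simp only [nrmII5, map_mul, Finset.prod_mul_distrib]

theorem nrmII5_inv (σ : MulAut V) (m : ℕ) (u : V) : nrmII5 σ m u⁻¹ = (nrmII5 σ m u)⁻¹ := by
  simp only [nrmII5, map_inv, Finset.prod_inv_distrib]

theorem nrmII5_apply (σ : MulAut V) (m : ℕ) (hσ : σ ^ m = 1) (u : V) :
    nrmII5 σ m (σ u) = nrmII5 σ m u := by
  unfold nrmII5
  have h1 : ∀ k : ℕ, (σ ^ k) (σ u) = (σ ^ (k + 1)) u := by
    intro k
    rw [pow_succ, MulAut.mul_apply]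
  simp only [h1]
  have h2 := Finset.prod_range_succ' (fun k => (σ ^ k) u) m
  have h3 := Finset.prod_range_succ (fun k => (σ ^ k) u) m
  rw [h3] at h2
  simp only [hσ, pow_zero, MulAut.one_apply] at h2
  exact (mul_right_cancel h2).symm

theorem nrmII5_fixed (σ : MulAut V) (m : ℕ) (u : V) (h : σ u = u) : nrmII5 σ m u = u ^ m := by
  unfold nrmII5
  have h1 : ∀ k : ℕ, (σ ^ k) u = u := by
    intro k
    induction k with
    | zero => simp
    | succ k ih => rw [pow_succ, MulAut.mul_apply, h, ih]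
  simp only [h1, Finset.prod_const, Finset.card_range]

theorem nrmII5_comm (σ τ : MulAut V) (m : ℕ) (hc : τ * σ = σ * τ) (u : V) :
    nrmII5 σ m (τ u) = τ (nrmII5 σ m u) := by
  unfold nrmII5
  rw [map_prod]
  apply Finset.prod_congr rfl
  intro k _
  have h1 : τ * σ ^ k = σ ^ k * τ := (Commute.pow_right hc k : Commute τ (σ ^ k))
  have h2 := congrArg (fun f : MulAut V => f u) h1
  simp only [MulAut.mul_apply] at h2
  exact h2.symm

end Norm

theorem card_inf_mul_relIndex_ii5 {G : Type u} [Group G] (H M : Subgroup G) :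
    Nat.card (H ⊓ M : Subgroup G) * M.relIndex H = Nat.card H := by
  have := Subgroup.relIndex_mul_relIndex (⊥ : Subgroup G) (M ⊓ H) H bot_le inf_le_right
  rw [Subgroup.relIndex_bot_left, Subgroup.relIndex_bot_left, Subgroup.inf_relIndex_right,
    inf_comm] at this
  exact this

theorem conj_central_mul_ii5 {G : Type u} [Group G] {z k x : G} (hz : z ∈ center G) :
    (z * k) * x * (z * k)⁻¹ = k * x * k⁻¹ := by
  have h := Subgroup.mem_center_iff.mp hz (k * x * k⁻¹)
  calc (z * k) * x * (z * k)⁻¹ = z * (k * x * k⁻¹) * z⁻¹ := by group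
    _ = (k * x * k⁻¹) * z * z⁻¹ := by rw [h]
    _ = k * x * k⁻¹ := by group

theorem pkgII5_of (hE4 : PkgE4.{u}) (hE7 : PkgE7.{u}) (hII12 : PkgII12.{u})
    (hII4 : PkgII4.{u}) : PkgII5.{u} := by
  intro G _ _ m n Q P p hS hII hmp
  subst hmp
  have hS0 := hS.s0
  have hQn : Q.Normal := hS0.qn
  haveI := hQn
  have hQc := hS0.qc
  have hmP : m.Prime := hS.pp
  have hQm : (Nat.card Q).Coprime m := hS0.qm
  obtain ⟨hnc, -⟩ := hE4 m n Q P hS0
  obtain ⟨hcomZ, hpowZ, hcard⟩ := hII4 m n Q P m hS hII rfl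
  -- an element `g` of `P` not centralizing `Q`
  obtain ⟨g, hgP, hgQ⟩ := SetLike.not_le_iff_exists.mp hnc
  have hgZ : g ∉ center G := fun h => hgQ (Subgroup.center_le_centralizer _ h)
  obtain ⟨q, hqQ, hqg⟩ : ∃ q ∈ Q, q * g ≠ g * q := by
    by_contra hcon
    apply hgQ
    rw [Subgroup.mem_centralizer_iff]
    intro q hq
    by_contra hne
    exact hcon ⟨q, hq, hne⟩
  obtain ⟨-, -, y, hyQ, hyZ, hgy⟩ := hII12 m n Q P m hS hII g hgP hgZ
  have hgy' : g * y = y * g := (hgy g hgP).mp rfl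
  -- commutative group structure on `Q`
  letI : CommGroup ↥Q := { (inferInstance : Group ↥Q) with
    mul_comm := fun a b => Subtype.ext (hQc a a.2 b b.2) }
  have hσm : (MulAut.conjNormal g : MulAut ↥Q) ^ m = 1 := by
    rw [← map_pow]
    apply MulEquiv.ext
    intro x
    apply Subtype.ext
    rw [MulAut.conjNormal_apply, MulAut.one_apply]
    have h1 := Subgroup.mem_center_iff.mp (hpowZ g hgP) (x : G)
    rw [← h1, mul_inv_cancel_right]
  have hτσ : ∀ h ∈ P, (MulAut.conjNormal h : MulAut ↥Q) * MulAut.conjNormal g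
      = MulAut.conjNormal g * MulAut.conjNormal h := by
    intro h hh
    rw [← map_mul, ← map_mul]
    apply MulEquiv.ext
    intro x
    apply Subtype.ext
    rw [MulAut.conjNormal_apply, MulAut.conjNormal_apply]
    have hz := hcomZ h hh g hgP
    have e : h * g = (h * g * h⁻¹ * g⁻¹) * (g * h) := by group
    have h1 := conj_central_mul_ii5 (k := g * h) (x := (x : G)) hz
    rw [← e] at h1
    exact h1
  have hσq : (MulAut.conjNormal g : MulAut ↥Q) ⟨q, hqQ⟩ ≠ ⟨q, hqQ⟩ := by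
    intro h
    have h1 := congrArg Subtype.val h
    rw [MulAut.conjNormal_apply] at h1
    exact hqg (mul_inv_eq_iff_eq_mul.mp h1).symm
  have hfix1 : ∀ w : ↥Q, (MulAut.conjNormal g : MulAut ↥Q) w = w →
      nrmII5 (MulAut.conjNormal g : MulAut ↥Q) m w = 1 → w = 1 := by
    intro w hw hν
    rw [nrmII5_fixed _ m w hw] at hν
    have h1 : orderOf w ∣ m := orderOf_dvd_of_pow_eq_one hν
    have h2 : orderOf w ∣ Nat.card ↥Q := orderOf_dvd_natCard w
    have h3 : orderOf w ∣ Nat.gcd (Nat.card ↥Q) m := Nat.dvd_gcd h2 h1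
    rw [Nat.Coprime.gcd_eq_one hQm] at h3
    exact orderOf_eq_one_iff.mp (Nat.dvd_one.mp h3)
  obtain ⟨u0, hu0def⟩ : ∃ u0 : ↥Q, u0 = (⟨q, hqQ⟩ : ↥Q)⁻¹ *
      (MulAut.conjNormal g : MulAut ↥Q) ⟨q, hqQ⟩ := ⟨_, rfl⟩
  have hu0ne : u0 ≠ 1 := by
    intro h
    apply hσq
    rw [hu0def, inv_mul_eq_one] at h
    exact h.symm
  have hνu0 : nrmII5 (MulAut.conjNormal g : MulAut ↥Q) m u0 = 1 := by
    rw [hu0def, nrmII5_mul, nrmII5_inv, nrmII5_apply _ m hσm, inv_mul_cancel]
  have hσy : (MulAut.conjNormal g : MulAut ↥Q) ⟨y, hyQ⟩ = ⟨y, hyQ⟩ := by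
    apply Subtype.ext
    rw [MulAut.conjNormal_apply]
    show g * y * g⁻¹ = y
    rw [hgy', mul_inv_cancel_right]
  obtain ⟨v, hvdef⟩ : ∃ v : ↥Q, v = (⟨y, hyQ⟩ : ↥Q) * u0 := ⟨_, rfl⟩
  have hvZ : (v : G) ∉ center G := by
    intro hvc
    have h1 : (MulAut.conjNormal g : MulAut ↥Q) v = v := by
      apply Subtype.ext
      rw [MulAut.conjNormal_apply]
      have h2 := Subgroup.mem_center_iff.mp hvc g
      rw [h2, mul_inv_cancel_right]
    have h2 : (MulAut.conjNormal g : MulAut ↥Q) u0 = u0 := by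
      rw [hvdef, map_mul, hσy] at h1
      exact mul_left_cancel h1
    exact hu0ne (hfix1 u0 h2 hνu0)
  obtain ⟨hvidx, -⟩ := hE7 m n Q P m hS (v : G) v.2 hvZ
  -- a non-central `h ∈ C_P(v)`
  obtain ⟨h, hhP, hhv, hhZ⟩ : ∃ h ∈ P, h * (v : G) = (v : G) * h ∧ h ∉ center G := by
    by_contra hcon
    have hcon' : ∀ h ∈ P, h * (v : G) = (v : G) * h → h ∈ center G := by
      intro h hh hhv
      by_contra hne
      exact hcon ⟨h, hh, hhv, hne⟩
    have heq : P ⊓ centralizer ({(v : G)} : Set G) = P ⊓ center G := by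
      apply le_antisymm
      · intro x hx
        rw [mem_inf] at hx ⊢
        refine ⟨hx.1, hcon' x hx.1 ?_⟩
        have h1 := hx.2
        simp only [mem_centralizer_iff, Set.mem_singleton_iff, forall_eq] at h1
        exact h1.symm
      · intro x hx
        rw [mem_inf] at hx ⊢
        refine ⟨hx.1, ?_⟩
        simp only [mem_centralizer_iff, Set.mem_singleton_iff, forall_eq]
        exact Subgroup.mem_center_iff.mp hx.2 (v : G)
    have h1 := card_inf_mul_relIndex_ii5 P (centralizer ({(v : G)} : Set G))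
    rw [heq, hvidx, hcard] at h1
    have hpos : 0 < Nat.card ↥(P ⊓ center G) := Nat.card_pos
    have h2 : m = m ^ 2 := by
      apply Nat.eq_of_mul_eq_mul_left hpos
      rw [h1]
      ring
    have hm2 := hmP.two_le
    nlinarith
  have hτσ' := hτσ h hhP
  have hτv : (MulAut.conjNormal h : MulAut ↥Q) v = v := by
    apply Subtype.ext
    rw [MulAut.conjNormal_apply, hhv, mul_inv_cancel_right]
  obtain ⟨w, hwdef⟩ : ∃ w : ↥Q, w = (⟨y, hyQ⟩ : ↥Q)⁻¹ *
      (MulAut.conjNormal h : MulAut ↥Q) ⟨y, hyQ⟩ := ⟨_, rfl⟩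
  have hw' : w = u0 * ((MulAut.conjNormal h : MulAut ↥Q) u0)⁻¹ := by
    rw [hvdef, map_mul] at hτv
    rw [hwdef, eq_mul_inv_iff_mul_eq, mul_assoc, hτv, inv_mul_cancel_left]
  have hσw : (MulAut.conjNormal g : MulAut ↥Q) w = w := by
    rw [hwdef, map_mul, map_inv, hσy]
    congr 1
    have h1 := congrArg (fun f : MulAut ↥Q => f ⟨y, hyQ⟩) hτσ'
    simp only [MulAut.mul_apply] at h1
    rw [hσy] at h1
    exact h1.symm
  have hνw : nrmII5 (MulAut.conjNormal g : MulAut ↥Q) m w = 1 := by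
    rw [hw', nrmII5_mul, nrmII5_inv, nrmII5_comm _ _ m hτσ', hνu0, map_one, inv_one, mul_one]
  have hw1 : w = 1 := hfix1 w hσw hνw
  have hτy : (MulAut.conjNormal h : MulAut ↥Q) ⟨y, hyQ⟩ = ⟨y, hyQ⟩ := by
    rw [hwdef, inv_mul_eq_one] at hw1
    exact hw1.symm
  have hτu : (MulAut.conjNormal h : MulAut ↥Q) u0 = u0 := by
    rw [hw', mul_inv_eq_one] at hw1
    exact hw1.symm
  have hhy : h * y = y * h := by
    have h1 := congrArg Subtype.val hτy
    rw [MulAut.conjNormal_apply] at h1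
    exact mul_inv_eq_iff_eq_mul.mp h1
  have hhg : h * g = g * h := (hgy h hhP).mpr hhy
  have hhu : h * (u0 : G) = (u0 : G) * h := by
    have h1 := congrArg Subtype.val hτu
    rw [MulAut.conjNormal_apply] at h1
    exact mul_inv_eq_iff_eq_mul.mp h1
  -- `g` commutes with `u0`
  have hgu : g * (u0 : G) = (u0 : G) * g := by
    by_cases hu0Z : (u0 : G) ∈ center G
    · exact Subgroup.mem_center_iff.mp hu0Z g
    · obtain ⟨hu0idx, hu0ab⟩ := hE7 m n Q P m hS (u0 : G) u0.2 hu0Z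
      obtain ⟨hhidx, -, -⟩ := hII12 m n Q P m hS hII h hhP hhZ
      have hle : P ⊓ centralizer ({(u0 : G)} : Set G) ≤ P ⊓ centralizer ({h} : Set G) := by
        intro a ha
        rw [mem_inf] at ha ⊢
        refine ⟨ha.1, ?_⟩
        have ha2 := ha.2
        simp only [mem_centralizer_iff, Set.mem_singleton_iff, forall_eq] at ha2 ⊢
        exact hu0ab h hhP hhu a ha.1 ha2.symm
      have hc1 := card_inf_mul_relIndex_ii5 P (centralizer ({(u0 : G)} : Set G))
      have hc2 := card_inf_mul_relIndex_ii5 P (centralizer ({h} : Set G))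
      rw [hu0idx] at hc1
      rw [hhidx] at hc2
      have hcardle : Nat.card ↥(P ⊓ centralizer ({h} : Set G)) ≤
          Nat.card ↥(P ⊓ centralizer ({(u0 : G)} : Set G)) := by
        have h3 : Nat.card ↥(P ⊓ centralizer ({h} : Set G)) * m =
            Nat.card ↥(P ⊓ centralizer ({(u0 : G)} : Set G)) * m := by rw [hc1, hc2]
        exact (Nat.eq_of_mul_eq_mul_right hmP.pos h3).le
      have heq := Subgroup.eq_of_le_of_card_ge hle hcardle
      have hgmem : g ∈ P ⊓ centralizer ({h} : Set G) := by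
        rw [mem_inf]
        refine ⟨hgP, ?_⟩
        simp only [mem_centralizer_iff, Set.mem_singleton_iff, forall_eq]
        exact hhg
      rw [← heq, mem_inf] at hgmem
      have h4 := hgmem.2
      simp only [mem_centralizer_iff, Set.mem_singleton_iff, forall_eq] at h4
      exact h4.symm
  have hσu : (MulAut.conjNormal g : MulAut ↥Q) u0 = u0 := by
    apply Subtype.ext
    rw [MulAut.conjNormal_apply, hgu, mul_inv_cancel_right]
  exact hu0ne (hfix1 u0 hσu hνu0)

end Cfsg.Agent.Lib.Helper71.CS3
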